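import Cfsg.Agent.H9.O5.Frame1
import Cfsg.Agent.H1.FrameTri

/-! The stabiliser of an orthonormal frame in `Ω_5(p)` is maximal. -/

set_option autoImplicit false
set_option linter.unusedSimpArgs false
set_option linter.unusedSectionVars false
set_option linter.unusedVariables false

namespace Cfsg.Agent.H9.O5

open Module Cfsg.Agent.Orth Cfsg.Agent.H1 Equiv

variable {F V : Type*} [Field F] [Finite F] [AddCommGroup V] [Module F V] [FiniteDimensional F V]
  {Q : QuadraticForm F V} {M : Subgroup (V ≃ₗ[F] V)} {e : Fin 5 → V}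

/-- frames -/
structure Fr (Q : QuadraticForm F V) (e : Fin 5 → V) : Prop where
  two : (2 : F) ≠ 0
  nd : Nd Q
  dim : finrank F V = 5
  B_eq : ∀ i j, B Q (e i) (e j) = if i = j then 2 else 0
  zero : ∀ x, (∀ i, B Q (e i) x = 0) → x = 0

/-- monomial maps -/
def Mon (e : Fin 5 → V) (g : V ≃ₗ[F] V) : Prop := ∀ i, ∃ j, g (e i) = e j ∨ g (e i) = -e j

theorem Fr.ext (h : Fr Q e) {x y : V} (h1 : ∀ i, B Q (e i) x = B Q (e i) y) : x = y :=
  sub_eq_zero.1 (h.zero _ fun i => by simp [h1])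

theorem Fr.Q_e (h : Fr Q e) (i : Fin 5) : Q (e i) = 1 :=
  mul_left_cancel₀ h.two (by rw [← B_self, h.B_eq]; simp)

theorem Fr.parseval (h : Fr Q e) (x y : V) : ∑ i, B Q (e i) x * B Q (e i) y = 2 * B Q x y := by
  have : (2 : F) • x = ∑ i, B Q (e i) x • e i := h.ext fun i => by simp [h.B_eq, mul_comm]
  simpa using (congrArg (fun z => B Q z y) this).symm

theorem Fr.ext_equiv (h : Fr Q e) {g g' : V ≃ₗ[F] V} (h1 : ∀ i, g (e i) = g' (e i)) : g = g' := by
  ext x
  have : (2 : F) • x = ∑ i, B Q (e i) x • e i := h.ext fun i => by simp [h.B_eq, mul_comm]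
  apply smul_right_injective V h.two
  simp only [← map_smul, this, map_sum]
  simp [h1]

theorem Fr.swap (h : Fr Q e) {i j : Fin 5} (hij : i ≠ j) :
    Q (e i - e j) = 2 ∧ ∀ k, refl Q (e i - e j) (e k) = e (swap i j k) := by
  have h1 : Q (e i - e j) = 2 := by rw [Q_sub, h.Q_e, h.Q_e, h.B_eq, if_neg hij]; ring
  refine ⟨h1, fun k => ?_⟩
  rw [Orth.refl_apply, h1]
  by_cases a : k = i
  · simp [a, h.B_eq, hij.symm, h.two]
  by_cases b : k = j
  · simp [b, h.B_eq, hij, h.two]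
  simp [h.B_eq, Ne.symm a, Ne.symm b, swap_apply_of_ne_of_ne a b]

theorem Fr.perm (h : Fr Q e) (σ : Perm (Fin 5)) : ∃ g ∈ O Q, (∀ i, g (e i) = e (σ i)) ∧
    (Perm.sign σ = 1 → g ∈ EO Q) ∧ (Perm.sign σ = -1 → g * refl Q (e 0 - e 1) ∈ EO Q) := by
  induction σ using Perm.swap_induction_on with
  | one => exact ⟨1, one_mem _, fun _ => rfl, fun _ => one_mem _, fun h => by simp at h⟩
  | swap_mul σ x y hxy ih =>
    obtain ⟨g, h1, h2, h3, h4⟩ := ih
    have h5 := h.nd.refl_mul_refl_mem_EO h.dim.ge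
      ((h.swap hxy).1.trans (h.swap (i := 0) (j := 1) (by decide)).1.symm)
    refine ⟨refl Q (e x - e y) * g, mul_mem (refl_mem_O _ _) h1, fun i => by
      rw [mul_app, h2, (h.swap hxy).2]; rfl, fun s => ?_, fun s => ?_⟩
    · have := mul_mem (conj_mem_EO (refl_mem_O Q (e x - e y)) (h4 (by
        simpa [hxy, neg_eq_iff_eq_neg] using s))) h5
      simpa [mul_assoc, refl_mul_self] using this
    · simpa [mul_assoc] using
        mul_mem (conj_mem_EO (refl_mem_O Q (e x - e y)) (h3 (by simpa [hxy] using s))) h5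

theorem frame_three (hprime : ∀ c : F, ∃ n : ℕ, c = n) (h : Fr Q e) (h3 : (3 : F) = 0)
    {G : Subgroup (V ≃ₗ[F] V)} (hG : G ≤ O Q) (he : ∀ i, refl Q (e i) ∈ G)
    (h4 : ∀ β m, B Q (e m) β = 0 → (∀ k, k ≠ m → B Q (e k) β ≠ 0) → Q β = 1 ∧ refl Q β ∈ G) :
    EO Q ≤ G := by
  have h2 := h.two
  have h4' : (2 + 2 : F) ≠ 0 := by rw [← two_mul]; exact mul_ne_zero h2 h2
  have hu : Q (e 0 + e 1 + e 2) = 0 := by
    simp [Q_add, h.Q_e, h.B_eq]; linear_combination h3
  have t1 : ∀ β, Q β = 1 ∧ refl Q β ∈ G → B Q (e 0 + e 1 + e 2) β = 0 →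
      Q (β + (e 0 + e 1 + e 2)) = 1 ∧ refl Q (β + (e 0 + e 1 + e 2)) ∈ G →
      β ∈ TT hprime Q G _ hu := fun β a b c =>
    TT_of_pair hprime a.1 a.2 b one_ne_zero (by simpa using c.2)
  have t3 := t1 (e 3) ⟨h.Q_e _, he _⟩ (by simp [h.B_eq]) (h4 _ 4 (by simp [h.B_eq]) fun k hk => by
    fin_cases k <;> simp [h.B_eq, h2, h4'] at hk ⊢)
  have t4 := t1 (e 4) ⟨h.Q_e _, he _⟩ (by simp [h.B_eq]) (h4 _ 3 (by simp [h.B_eq]) fun k hk => by
    fin_cases k <;> simp [h.B_eq, h2, h4'] at hk ⊢)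
  have t5 := t1 (e 0 - e 1 + e 3 + e 4) (h4 _ 2 (by simp [h.B_eq]) fun k hk => by
    fin_cases k <;> simp [h.B_eq, h2, h4'] at hk ⊢) (by simp [h.B_eq]) (h4 _ 1 (by simp [h.B_eq]) fun k hk => by
    fin_cases k <;> simp [h.B_eq, h2, h4'] at hk ⊢)
  refine EO_le_of_full_of_move h.nd h.dim.ge hG hu (fun w hw => ?_) (he 0) ?_
  · have : w = (2⁻¹ * B Q (e 2) w) • (e 0 + e 1 + e 2) + (2⁻¹ * (B Q (e 0) w - B Q (e 2) w)) •
        (e 0 - e 1 + e 3 + e 4 - e 3 - e 4) + (2⁻¹ * B Q (e 3) w) • e 3 +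
        (2⁻¹ * B Q (e 4) w) • e 4 := h.ext fun k => by
      simp only [map_add, LinearMap.add_apply] at hw
      fin_cases k <;> simp [h.B_eq] <;> field_simp
      all_goals first | ring1 | linear_combination hw - B Q (e 2) w * h3
    rw [this]
    exact (add_mem (add_mem (add_mem (Submodule.smul_mem _ _ (self_mem_TT hprime hu))
      (Submodule.smul_mem _ _ (sub_mem (sub_mem t5 t3) t4))) (Submodule.smul_mem _ _ t3))
      (Submodule.smul_mem _ _ t4)).2
  · simp [refl_one (h.Q_e 0), h.B_eq]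
    exact fun h' => h2 (by linear_combination h')

set_option maxHeartbeats 800000 in
theorem frame_core (hprime : ∀ c : F, ∃ n : ℕ, c = n) (h : Fr Q e) (hM : M ≤ O Q)
    (hH : ∀ g ∈ EO Q, Mon e g → g ∈ M) : (∀ g ∈ M, Mon e g) ∨ EO Q ≤ M := by
  refine or_iff_not_imp_right.2 fun hE g hg i => by_contra fun hcon => ?_
  have h2 := h.two
  have hσ : ∀ σ : Perm (Fin 5), Perm.sign σ = 1 → ∃ g ∈ M, ∀ i, g (e i) = e (σ i) := fun σ s => by
    obtain ⟨g, -, a, b, -⟩ := h.perm σ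
    exact ⟨g, hH g (b s) fun i => ⟨_, Or.inl (a i)⟩, a⟩
  let G : Subgroup (V ≃ₗ[F] V) := Subgroup.closure {s | ∃ g ∈ M, s = refl Q (g (e 0))}
  have hG : G ≤ O Q := by
    rw [Subgroup.closure_le]; rintro _ ⟨β, -, rfl⟩; exact refl_mem_O Q _
  have hn : ∀ g : V ≃ₗ[F] V, LinearEquiv.neg F * g = g * LinearEquiv.neg F := fun g => by ext; simp
  have hnn : LinearEquiv.neg F * LinearEquiv.neg F = (1 : V ≃ₗ[F] V) := by ext; simp
  have hE' : ¬ EO Q ≤ G := fun hE' => hE (by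
    have hsq : ∀ g ∈ G, g ∈ M ∨ g * LinearEquiv.neg F ∈ M := fun g hg => by
      induction hg using Subgroup.closure_induction with
      | one => exact Or.inl (one_mem _)
      | mem x hx =>
        obtain ⟨g, hg, rfl⟩ := hx
        have h1 : refl Q (e 0) * LinearEquiv.neg F = refl Q (e 1) * refl Q (e 2) *
            (refl Q (e 3) * refl Q (e 4)) := h.ext_equiv fun i => by
          fin_cases i <;> simp [mul_app, refl_one (h.Q_e _), h.B_eq] <;> module
        have h3 : refl Q (e 0) * LinearEquiv.neg F ∈ M := hH _ (h1 ▸ mul_mem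
          (h.nd.refl_mul_refl_mem_EO h.dim.ge (by simp [h.Q_e]))
          (h.nd.refl_mul_refl_mem_EO h.dim.ge (by simp [h.Q_e]))) fun i => ⟨i, by
            by_cases c : i = 0
            · left; simp [c, mul_app, refl_self, h.Q_e]
            · right; simp [mul_app, refl_of_perp, h.B_eq, Ne.symm c]⟩
        right
        rw [← conj_refl (hM hg), mul_assoc, ← hn, ← mul_assoc, mul_assoc g]
        exact mul_mem (mul_mem hg h3) (inv_mem hg)
      | mul x y _ _ hx hy =>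
        rcases hx with hx | hx <;> rcases hy with hy | hy
        · exact Or.inl (mul_mem hx hy)
        · exact Or.inr (by rw [mul_assoc]; exact mul_mem hx hy)
        · exact Or.inr (by simpa only [mul_assoc, hn] using mul_mem hx hy)
        · exact Or.inl (by simpa only [mul_assoc, hn, hnn, mul_one] using mul_mem hx hy)
      | inv x _ hx =>
        refine hx.imp inv_mem fun hx => ?_
        simpa only [mul_inv_rev, inv_eq_of_mul_eq_one_right hnn, hn] using inv_mem hx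
    rw [EO_le_iff]
    intro u w hu hw
    have h1 : B Q u ((2 : F)⁻¹ • w) = 0 := by simp [hw]
    have h3 : eich Q u ((2 : F)⁻¹ • w) * eich Q u ((2 : F)⁻¹ • w) ∈ M := by
      rcases hsq _ (hE' (eich_mem_EO u ((2 : F)⁻¹ • w))) with a | a
      · exact mul_mem a a
      · simpa only [mul_assoc, hn, hnn, mul_one] using mul_mem a a
    rwa [eich_mul hu h1 h1, ← two_smul F, smul_smul, mul_inv_cancel₀ h2, one_smul] at h3)
  have hMG : ∀ g ∈ M, ∀ β, refl Q β ∈ G → refl Q (g β) ∈ G := fun g hg β hβ => by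
    rw [← conj_refl (hM hg)]
    generalize refl Q β = x at hβ
    induction hβ using Subgroup.closure_induction with
    | one => simp
    | mem x hx =>
      obtain ⟨k, hk, rfl⟩ := hx
      rw [conj_refl (hM hg)]
      exact Subgroup.subset_closure ⟨g * k, mul_mem hg hk, rfl⟩
    | mul x y _ _ hx hy => simpa [mul_assoc] using mul_mem hx hy
    | inv x _ hx => simpa [mul_assoc] using inv_mem hx
  have he : ∀ i, refl Q (e i) ∈ G := fun i => by
    obtain ⟨j, a, -⟩ := exists_third i i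
    obtain ⟨k, b, c⟩ := exists_third i j
    obtain ⟨σ, s, rfl, -⟩ := exists_even a b c
    obtain ⟨g, hg, h1⟩ := hσ σ s
    exact Subgroup.subset_closure ⟨g, hg, by rw [h1]⟩
  let D : (Fin 5 → F) → Prop := fun b => ∃ β, Q β = 1 ∧ refl Q β ∈ G ∧ ∀ i, B Q (e i) β = b i
  have hD : FD D := by
    refine ⟨h2, ?_, ?_, fun i => ⟨e i, h.Q_e i, he i, fun j => by simp [h.B_eq, Pi.single_apply]⟩, ?_⟩
    · rintro b ⟨β, a1, -, a3⟩
      simp only [← a3, h.parseval, B_self, a1]; norm_num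
    · rintro b c a ⟨β, a1, a2, a3⟩ ⟨γ, b1, b2, b3⟩ h1
      simp only [← a3, ← b3, h.parseval, mul_right_inj' h2] at h1
      exact ⟨refl Q β γ, by rw [refl_mem_O, b1], refl_conj_mem hG a2 b2, fun i => by
        simp [refl_one a1, h1, a3, b3]⟩
    · rintro b σ s ⟨β, a1, a2, a3⟩
      obtain ⟨g, hg, h1⟩ := hσ σ s
      exact ⟨g⁻¹ β, by rw [hM (inv_mem hg), a1], hMG _ (inv_mem hg) _ a2, fun i => by
        rw [← O_B_inv (hM hg), h1, a3]; rfl⟩
  have hb : D fun k => B Q (e k) (g (e i)) := ⟨_, by rw [hM hg, h.Q_e], hMG g hg _ (he i), fun _ => rfl⟩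
  obtain ⟨j, k, hjk, hj, hk⟩ : ∃ j k, j ≠ k ∧ B Q (e j) (g (e i)) ≠ 0 ∧ B Q (e k) (g (e i)) ≠ 0 := by
    by_contra! h'
    obtain ⟨j, hj⟩ : ∃ j, B Q (e j) (g (e i)) ≠ 0 := by
      by_contra! h0
      simpa [h.zero _ h0] using hM hg (e i) |>.trans (h.Q_e i)
    have h1 := hD.norm _ hb
    rw [Finset.sum_eq_single j (fun k _ hk => by simp [h' j k hk.symm hj]) (by simp),
      show (4 : F) = 2 * 2 by norm_num] at h1
    refine hcon ⟨j, (mul_self_eq_mul_self_iff.1 h1).imp (fun h1 => h.ext fun k => ?_)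
      fun h1 => h.ext fun k => ?_⟩ <;> by_cases c : k = j
    · simp [c, h1, h.B_eq]
    · simp [c, h.B_eq, h' j k (Ne.symm c) hj]
    · simp [c, h1, h.B_eq]
    · simp [c, h.B_eq, h' j k (Ne.symm c) hj]
  by_cases h3 : (3 : F) = 0
  · have sq : ∀ c : F, c ≠ 0 → c * c = 1 := by
      intro c hc
      obtain ⟨n, rfl⟩ := hprime c
      have : ∀ n : ℕ, (n : F) * (n * n - 1) = 0 := by
        intro n
        induction n with
        | zero => simp
        | succ n ih => push_cast; linear_combination ih + (n * n + n) * h3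
      exact sub_eq_zero.1 ((mul_eq_zero.1 (this n)).resolve_left hc)
    exact hE' (frame_three hprime h h3 hG he fun β m a a' => by
      obtain ⟨γ, b1, b2, b3⟩ := hD.char_three h3 sq hb hjk hj hk m a a'
      exact h.ext b3 ▸ ⟨b1, b2⟩)
  have hC : Conn Q G := by
    intro Z hZ0 hZ1
    by_contra! hcon
    obtain ⟨a, ha⟩ : ∃ a, e a ∉ perp Q Z := by
      by_contra! h'
      exact hZ0 (eq_bot_iff.2 fun v hv => h.zero v fun i => mem_perp'.1 (h' i) v hv)
    obtain ⟨a', ha'⟩ : ∃ a, e a ∉ Z := by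
      by_contra! h'
      refine hZ1 (h.nd.perp_injective (h.nd.perp_top ▸ eq_bot_iff.2 fun v hv => ?_))
      exact h.zero v fun i => hv _ (h' i)
    have h5 := hcon _ (h.Q_e a') (he a') ha'
    have h6 : e a ∈ Z := by_contra fun h' => ha (hcon _ (h.Q_e a) (he a) h')
    obtain ⟨c, ⟨β, b1, b2, b3⟩, c1, c2, -⟩ := hD.move hb hjk (i' := a) (j' := a') (by
      rintro rfl; exact ha h5)
    by_cases hβ : β ∈ Z
    · exact hk (by rw [← c2, ← b3, mem_perp'.1 h5 β hβ])
    · exact hj (by rw [← c1, ← b3, hcon β b1 b2 hβ _ h6])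
  have hT : ∀ b i j, D b → i ≠ j → b i ≠ 0 → b j ≠ 0 → b i * b i + b j * b j ≠ 4 → SV (b i * b i) := by
    rintro b i j ⟨β, a1, a2, a3⟩ hij hi hj h4
    have h5 := mul_ne_zero hi hi
    rw [← sq] at h5 ⊢
    rcases tri_geo hprime h2 h3 hG h.nd h.dim.ge hC hE' a1 (h.Q_e i) (h.Q_e j) a2 (he i) (he j)
      ((B_comm _ _ _).trans (a3 i)) ((B_comm _ _ _).trans (a3 j)) ((h.B_eq i j).trans (if_neg hij))
      rfl (fun h' => h4 (by linear_combination -h')) hi (Or.inl hj) with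
      ⟨c | c | c, -⟩ | ⟨h5', c | c | c, -⟩
    exacts [absurd c h5, Or.inl c, Or.inr (Or.inl c), absurd c h5, Or.inl c, Or.inr (Or.inr ⟨h5', c⟩)]
  obtain ⟨-, c, ⟨γ, b1, b2, b3⟩, h4⟩ := hD.pair h3 hT hb hjk hj hk
  refine hD.ne_one h3 hT (b := fun k => B Q (e k) (g⁻¹ γ)) ⟨_, by rw [hM (inv_mem hg), b1],
    hMG _ (inv_mem hg) _ b2, fun _ => rfl⟩ i (mul_left_cancel₀ h2 ?_)
  simp only [← b3, h.parseval] at h4
  rw [← O_B_inv (hM hg), h4, mul_one]

end Cfsg.Agent.H9.O5
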