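import Mathlib

/-! Sets of vectors in `F^5` closed under reflections and even permutations. -/

set_option autoImplicit false
set_option linter.unusedSimpArgs false
set_option linter.unusedSectionVars false
set_option linter.unusedVariables false

namespace Cfsg.Agent.H9.O5

open Equiv

variable {F : Type*} [Field F] {D : (Fin 5 → F) → Prop} {b : Fin 5 → F}

theorem exists_even {i j k : Fin 5} (hij : i ≠ j) (hik : i ≠ k) (hjk : j ≠ k) :
    ∃ σ : Perm (Fin 5), Perm.sign σ = 1 ∧ σ 0 = i ∧ σ 1 = j ∧ σ 2 = k := by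
  obtain ⟨σ, h⟩ : ∃ σ : Perm (Fin 5), σ 0 = i ∧ σ 1 = j ∧ σ 2 = k :=
    ⟨swap 0 i * swap 1 (swap 0 i j) * swap 2 (swap 1 (swap 0 i j) (swap 0 i k)), by
      revert i j k; decide⟩
  rcases Int.units_eq_one_or (Perm.sign σ) with h1 | h1
  · exact ⟨σ, h1, h⟩
  · exact ⟨σ * swap 3 4, by simp [h1], by simpa [swap_apply_of_ne_of_ne] using h⟩

theorem exists_third (i j : Fin 5) : ∃ k, i ≠ k ∧ j ≠ k := by revert i j; decide

/-- closure properties -/
structure FD (D : (Fin 5 → F) → Prop) : Prop where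
  two : (2 : F) ≠ 0
  norm : ∀ b, D b → ∑ i, b i * b i = 4
  refl : ∀ b c a, D b → D c → ∑ i, b i * c i = 2 * a → D (c - a • b)
  basis : ∀ i, D (Pi.single i 2)
  perm : ∀ b (σ : Perm (Fin 5)), Perm.sign σ = 1 → D b → D (b ∘ σ)

theorem FD.sgn (h : FD D) (hb : D b) {c : Fin 5 → F} (hc : ∀ i, c i * c i = b i * b i) : D c := by
  classical
  have : ∀ s : Finset (Fin 5), D fun i => if i ∈ s then c i else b i := fun s => by
    induction s using Finset.induction_on with
    | empty => simpa using hb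
    | insert j s hj ih =>
      rcases mul_self_eq_mul_self_iff.1 (hc j) with h1 | h1
      · convert ih using 2 with i
        by_cases h2 : i = j <;> simp [h2, hj, h1]
      · convert h.refl _ _ (b j) (h.basis j) ih (by
          rw [Finset.sum_eq_single j (by simp +contextual [Pi.single_apply]) (by simp)]; simp [hj]) using 1
        ext i
        by_cases h2 : i = j <;> simp [h2, hj, h1]
        ring
  simpa using this Finset.univ

theorem FD.move (h : FD D) (hb : D b) {i j : Fin 5} (hij : i ≠ j) {i' j' : Fin 5} (hij' : i' ≠ j') :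
    ∃ c, D c ∧ c i' = b i ∧ c j' = b j ∧ ∀ k, k ≠ i' → ∃ l, l ≠ i ∧ c k = b l := by
  obtain ⟨k, k1, k2⟩ := exists_third i j
  obtain ⟨k', k1', k2'⟩ := exists_third i' j'
  obtain ⟨σ, s, rfl, rfl, -⟩ := exists_even hij k1 k2
  obtain ⟨τ, t, rfl, rfl, -⟩ := exists_even hij' k1' k2'
  refine ⟨_, h.perm _ (σ * τ⁻¹) (by simp [s, t]) hb, by simp, by simp, fun k hk => ⟨_, ?_, rfl⟩⟩
  simpa [symm_apply_eq] using hk

/-- allowed squares of coordinates -/
def SV (t : F) : Prop := t = 1 ∨ t = 2 ∨ ((5 : F) ≠ 0 ∧ t ^ 2 - 3 * t + 1 = 0)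

/-- the pair rule -/
def PR (x y : F) : Prop := x = 1 ∨ y = 1 ∨ ((5 : F) ≠ 0 ∧ x + y = 3 ∧ x * y = 1)

theorem pr_of (h2 : (2 : F) ≠ 0) (h3 : (3 : F) ≠ 0) {x y : F} (hx : SV x) (hy : SV y)
    (hxy : SV (x * y)) : PR x y := by
  have h4 := mul_ne_zero h2 h2
  have key : ∀ t : F, t ^ 2 - 3 * t + 1 = 0 → ¬ SV (2 * t) := by
    rintro t ht (h | h | ⟨-, h⟩)
    · exact one_ne_zero (α := F) (by linear_combination (2 * t - 5) * h - 4 * ht)
    · exact h4 (by linear_combination (2 * t - 4) * h - 4 * ht)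
    · exact mul_ne_zero h3 h3 (by linear_combination (6 * t - 15) * h - (24 * t - 24) * ht)
  rcases hx with rfl | rfl | ⟨h5, hx⟩
  · exact Or.inl rfl
  all_goals rcases hy with rfl | rfl | ⟨h5', hy⟩
  all_goals try exact Or.inr (Or.inl rfl)
  · rcases hxy with h | h | ⟨h5, h⟩
    exacts [absurd (by linear_combination h) h3, absurd (by linear_combination h) h2,
      absurd (by linear_combination h) h5]
  · exact absurd hxy (key y hy)
  · exact absurd (mul_comm x 2 ▸ hxy) (key x hx)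
  by_cases h : x = y
  swap
  · have : x + y = 3 := mul_left_cancel₀ (sub_ne_zero.2 h) (by linear_combination hx - hy)
    exact Or.inr (Or.inr ⟨h5, this, by linear_combination x * this - hx⟩)
  subst h
  rcases hxy with h | h | ⟨-, h⟩
  · exact absurd (by linear_combination (3 * x - 7) * h - (3 * x + 2) * hx) h5
  · exact absurd (by linear_combination (x - 2) * h - (x + 1) * hx) h3
  · exact absurd (by linear_combination (3 * x ^ 3 + x ^ 2 - 9 * x - 4) * hx -
      (3 * x - 8) * h) h4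

section

variable (h : FD D) (h3 : (3 : F) ≠ 0) (hT : ∀ b i j, D b → i ≠ j → b i ≠ 0 → b j ≠ 0 →
  b i * b i + b j * b j ≠ 4 → SV (b i * b i))
include h h3 hT

theorem FD.sv (hb : D b) {i j k : Fin 5} (hij : i ≠ j) (hik : i ≠ k) (hjk : j ≠ k) (hi : b i ≠ 0)
    (hj : b j ≠ 0) (hk : b k ≠ 0) : SV (b i * b i) := by
  obtain ⟨σ, s, rfl, rfl, rfl⟩ := exists_even hij hik hjk
  have hc := h.perm _ σ s hb
  change (b ∘ σ) _ ≠ 0 at hi hj hk
  change SV ((b ∘ σ) 0 * (b ∘ σ) 0)
  generalize b ∘ σ = c at *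
  by_contra hn
  have h1 : ∀ l, 0 ≠ l → c l = 0 ∨ c 0 * c 0 + c l * c l = 4 := fun l hl => by
    by_contra! h'
    exact hn (hT c 0 l hc hl hi h'.1 h'.2)
  have h4 := h.norm c hc
  have a1 := (h1 1 (by decide)).resolve_left hj
  have a2 := (h1 2 (by decide)).resolve_left hk
  rw [Fin.sum_univ_five] at h4
  have h5 := mul_ne_zero hj hj
  rcases h1 3 (by decide) with a3 | a3 <;> rcases h1 4 (by decide) with a4 | a4
  · exact h5 (by linear_combination h4 - a2 - c 3 * a3 - c 4 * a4)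
  · exact mul_ne_zero h.two h5 (by linear_combination h4 + a1 - a2 - c 3 * a3 - a4)
  · exact mul_ne_zero h.two h5 (by linear_combination h4 + a1 - a2 - c 4 * a4 - a3)
  · exact mul_ne_zero h3 h5 (by linear_combination h4 + 2 * a1 - a2 - a4 - a3)

theorem FD.pr (hb : D b) {i j k : Fin 5} (hij : i ≠ j) (hik : i ≠ k) (hjk : j ≠ k) (hi : b i ≠ 0)
    (hj : b j ≠ 0) (hk : b k ≠ 0) : PR (b i * b i) (b j * b j) := by
  refine pr_of h.two h3 (h.sv h3 hT hb hij hik hjk hi hj hk)
    (h.sv h3 hT hb hij.symm hjk hik hj hi hk) ?_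
  obtain ⟨σ, s, rfl, rfl, rfl⟩ := exists_even hij hik hjk
  have hc := h.perm _ σ s hb
  change (b ∘ σ) _ ≠ 0 at hi hj hk
  change SV ((b ∘ σ) 0 * (b ∘ σ) 0 * ((b ∘ σ) 1 * (b ∘ σ) 1))
  generalize b ∘ σ = c at *
  have h1 := fun i => h.refl _ _ (c i) hc (h.basis i) (by simp [Pi.single_apply, mul_comm])
  rw [mul_mul_mul_comm]
  by_cases a0 : 2 - c 0 * c 0 = 0
  swap
  · simpa using h.sv h3 hT (h1 0) (i := 1) (j := 0) (k := 2) (by decide) (by decide) (by decide)
      (by simp [hi, hj]) (by simpa) (by simp [hi, hk])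
  by_cases a1 : 2 - c 1 * c 1 = 0
  swap
  · simpa [mul_comm] using h.sv h3 hT (h1 1) (i := 0) (j := 1) (k := 2) (by decide) (by decide)
      (by decide) (by simp [hi, hj]) (by simpa) (by simp [hj, hk])
  have h4 := h.norm c hc
  rw [Fin.sum_univ_five] at h4
  by_cases a3 : c 3 = 0
  swap
  · simpa using h.sv h3 hT (h1 0) (i := 1) (j := 2) (k := 3) (by decide) (by decide) (by decide)
      (by simp [hi, hj]) (by simp [hi, hk]) (by simp [hi, a3])
  by_cases a4 : c 4 = 0
  swap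
  · simpa using h.sv h3 hT (h1 0) (i := 1) (j := 2) (k := 4) (by decide) (by decide) (by decide)
      (by simp [hi, hj]) (by simp [hi, hk]) (by simp [hi, a4])
  exact absurd (by linear_combination h4 + a0 + a1 - c 3 * a3 - c 4 * a4) (mul_ne_zero hk hk)

theorem FD.one (hb : D b) {i j k : Fin 5} (hij : i ≠ j) (hik : i ≠ k) (hjk : j ≠ k) (hi : b i ≠ 0)
    (hj : b j ≠ 0) (hk : b k ≠ 0) : b i * b i = 1 ∨ b j * b j = 1 ∨ b k * b k = 1 := by
  by_contra! h'
  obtain ⟨h5, a, -⟩ := ((h.pr h3 hT hb hij hik hjk hi hj hk).resolve_left h'.1).resolve_left h'.2.1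
  obtain ⟨-, a', -⟩ := ((h.pr h3 hT hb hik hij hjk.symm hi hk hj).resolve_left h'.1).resolve_left h'.2.2
  obtain ⟨-, a'', -⟩ := ((h.pr h3 hT hb hjk hij.symm hik.symm hj hk hi).resolve_left
    h'.2.1).resolve_left h'.2.2
  have e : 2 * (b i * b i) = 3 := by linear_combination a + a' - a''
  rcases h.sv h3 hT hb hij hik hjk hi hj hk with c | c | ⟨-, c⟩
  · exact h'.1 c
  · exact one_ne_zero (α := F) (by linear_combination e - 2 * c)
  · exact h5 (by linear_combination (2 * (b i * b i) - 3) * e - 4 * c)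

theorem FD.four (hb : D b) {i j k l : Fin 5} (hij : i ≠ j) (hik : i ≠ k) (hjk : j ≠ k) (hil : i ≠ l)
    (hjl : j ≠ l) (hkl : k ≠ l) (hi : b i * b i = 1) (hj : b j * b j = 1) (hk : b k ≠ 0)
    (hl : b l ≠ 0) : False := by
  have h2 := h.two
  have key : ∀ c, D c → c 0 * c 0 = 1 → c 1 * c 1 = 1 → c 2 ≠ 0 → c 3 ≠ 0 → False := by
    intro c hc a0 a1 a2 a3
    have n0 : c 0 ≠ 0 := by rintro h'; simp [h'] at a0
    have n1 : c 1 ≠ 0 := by rintro h'; simp [h'] at a1
    have h4 := h.norm c hc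
    rw [Fin.sum_univ_five] at h4
    by_cases a4 : c 4 = 0
    swap
    · have key : ∀ x y z : Fin 5, x ≠ y → x ≠ 0 → y ≠ 0 → c x ≠ 0 → c y ≠ 0 →
          c x * c x + c y * c y = 1 → False := fun x y z e1 e2 e3 e4 e5 e6 => by
        rcases h.pr h3 hT hc e1 e2 e3 e4 e5 n0 with e | e | ⟨-, e, -⟩
        exacts [mul_ne_zero e5 e5 (by linear_combination e6 - e),
          mul_ne_zero e4 e4 (by linear_combination e6 - e), h2 (by linear_combination e6 - e)]
      rcases h.one h3 hT hc (by decide) (by decide) (by decide) a2 a3 a4 with e | e | e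
      · exact key 3 4 0 (by decide) (by decide) (by decide) a3 a4 (by linear_combination h4 - a0 - a1 - e)
      · exact key 2 4 0 (by decide) (by decide) (by decide) a2 a4 (by linear_combination h4 - a0 - a1 - e)
      · exact key 2 3 0 (by decide) (by decide) (by decide) a2 a3 (by linear_combination h4 - a0 - a1 - e)
    have a5 : c 2 * c 2 = 1 := by
      rcases h.pr h3 hT hc (by decide) (by decide) (by decide) a2 a3 n0 with e | e | ⟨-, e, -⟩
      exacts [e, by linear_combination h4 - a0 - a1 - e - c 4 * a4,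
        absurd (by linear_combination h4 - a0 - a1 - e - c 4 * a4) (one_ne_zero (α := F))]
    have h5 := h.refl _ _ (c 0 * c 1 + 2⁻¹) hc (h.perm _ (swap 0 1 * swap 3 4) (by simp) hc) (by
      simp [Fin.sum_univ_five, swap_apply_of_ne_of_ne, a4, a5, mul_add, h2]; ring)
    have e0 : c 1 - (c 0 * c 1 + 2⁻¹) * c 0 = -(2⁻¹ * c 0) := by linear_combination -c 1 * a0
    have e1 : c 0 - (c 0 * c 1 + 2⁻¹) * c 1 = -(2⁻¹ * c 1) := by linear_combination -c 0 * a1
    have := h.pr h3 hT h5 (i := 0) (j := 1) (k := 4) (by decide) (by decide) (by decide)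
      (by simp [swap_apply_of_ne_of_ne, e0, h2, n0]) (by simp [swap_apply_of_ne_of_ne, e1, h2, n1])
      (by simp [swap_apply_of_ne_of_ne, a3, a4])
    simp only [Pi.sub_apply, Function.comp, Perm.mul_apply, Pi.smul_apply, smul_eq_mul] at this
    rw [show swap (0 : Fin 5) 1 (swap 3 4 0) = 1 by decide, show swap (0 : Fin 5) 1 (swap 3 4 1) = 0
      by decide, e0, e1] at this
    rcases this with e | e | ⟨h5, e, -⟩ <;> field_simp at e
    exacts [h3 (by linear_combination a0 - e), h3 (by linear_combination a1 - e),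
      mul_ne_zero h2 h5 (by linear_combination a0 + a1 - e)]
  obtain ⟨σ, s, rfl, rfl, rfl⟩ := exists_even hij hik hjk
  obtain ⟨m, rfl⟩ := σ.surjective l
  have hc := h.perm _ σ s hb
  have : m = 3 ∨ m = 4 := by
    simp only [ne_eq, EmbeddingLike.apply_eq_iff_eq] at hil hjl hkl
    omega
  rcases this with rfl | rfl
  · exact key _ hc hi hj hk hl
  · refine key _ (h.perm _ (swap 0 1 * swap 3 4) (by simp) hc) ?_ ?_ ?_ ?_ <;>
      simpa [swap_apply_of_ne_of_ne]

theorem FD.three (hb : D b) {i j k : Fin 5} (hij : i ≠ j) (hik : i ≠ k) (hjk : j ≠ k)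
    (hi : b i ≠ 0) (hj : b j ≠ 0) (hk : b k ≠ 0) : False := by
  have h2 := h.two
  have key : ∀ c, D c → c 0 * c 0 = 1 → c 1 ≠ 0 → c 2 ≠ 0 → False := by
    intro c hc a0 a1 a2
    have n0 : c 0 ≠ 0 := by rintro h'; simp [h'] at a0
    have k1 : ∀ l, 0 ≠ l → 1 ≠ l → 2 ≠ l → c l = 0 := fun l l0 l1 l2 => by
      by_contra a3
      rcases h.one h3 hT hc (by decide) l1 l2 a1 a2 a3 with e | e | e
      · exact h.four h3 hT hc (by decide) (by decide) (by decide) l0 l1 l2 a0 e a2 a3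
      · exact h.four h3 hT hc (by decide) (by decide) (by decide) l0 l2 l1 a0 e a1 a3
      · exact h.four h3 hT hc l0 (by decide) l1.symm (by decide) l2.symm (by decide) a0 e a1 a2
    have a3 := k1 3 (by decide) (by decide) (by decide)
    have a4 := k1 4 (by decide) (by decide) (by decide)
    have h4 := h.norm c hc
    rw [Fin.sum_univ_five] at h4
    have h5 := h.refl _ _ 2⁻¹ hc (h.perm _ (swap 1 3 * swap 2 4) (by simp) hc) (by
      simp [Fin.sum_univ_five, swap_apply_of_ne_of_ne, a4, a3, a0, h2])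
    have e0 : c 0 - 2⁻¹ * c 0 = 2⁻¹ * c 0 := by field_simp; ring
    have k2 : ∀ x : F, PR (2⁻¹ * c 0 * (2⁻¹ * c 0)) x → x = 1 := by
      rintro x (e | e | ⟨h5, e, e'⟩)
      · field_simp at e; exact absurd (by linear_combination a0 - e) h3
      · exact e
      field_simp at e e'
      exact absurd (by linear_combination e - 4 * e' + (4 * x - 1) * a0) h5
    have b0 : c 0 - 2⁻¹ * c 0 ≠ 0 := by simp [e0, h2, n0]
    have p1 := h.pr h3 hT h5 (i := 0) (j := 3) (k := 4) (by decide) (by decide) (by decide)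
      (by simpa [swap_apply_of_ne_of_ne]) (by simpa [swap_apply_of_ne_of_ne, a3])
      (by simpa [swap_apply_of_ne_of_ne, a4])
    have p2 := h.pr h3 hT h5 (i := 0) (j := 4) (k := 3) (by decide) (by decide) (by decide)
      (by simpa [swap_apply_of_ne_of_ne]) (by simpa [swap_apply_of_ne_of_ne, a4])
      (by simpa [swap_apply_of_ne_of_ne, a3])
    simp [swap_apply_of_ne_of_ne, a3, a4, e0] at p1 p2
    exact one_ne_zero (α := F) (by
      linear_combination a0 + k2 _ p1 + k2 _ p2 + c 3 * a3 + c 4 * a4 - h4)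
  rcases h.one h3 hT hb hij hik hjk hi hj hk with e | e | e
  · obtain ⟨σ, s, rfl, rfl, rfl⟩ := exists_even hij hik hjk
    exact key _ (h.perm _ σ s hb) e hj hk
  · obtain ⟨σ, s, rfl, rfl, rfl⟩ := exists_even hij.symm hjk hik
    exact key _ (h.perm _ σ s hb) e hi hk
  · obtain ⟨σ, s, rfl, rfl, rfl⟩ := exists_even hik.symm hjk.symm hij
    exact key _ (h.perm _ σ s hb) e hi hj

theorem FD.pair (hb : D b) {i j : Fin 5} (hij : i ≠ j) (hi : b i ≠ 0) (hj : b j ≠ 0) :
    b i * b i = 2 ∧ ∃ c, D c ∧ ∑ k, b k * c k = 2 := by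
  obtain ⟨k, k1, k2⟩ := exists_third i j
  obtain ⟨σ, s, rfl, rfl, -⟩ := exists_even hij k1 k2
  have hc := h.perm _ σ s hb
  have h0 : ∀ l, 0 ≠ l → 1 ≠ l → (b ∘ σ) l = 0 := fun l l0 l1 => by_contra fun h' =>
    h.three h3 hT hc (by decide) l0 l1 hi hj h'
  have h4 := h.perm _ (swap 1 2 * swap 3 4) (by simp) hc
  have h5 : ∑ l, (b ∘ σ) l * ((b ∘ σ) ∘ (swap 1 2 * swap 3 4 : Perm (Fin 5))) l = b (σ 0) * b (σ 0) := by
    generalize hc : b ∘ σ = c at h0
    rw [show b (σ 0) = c 0 from congrFun hc 0]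
    simp [Fin.sum_univ_five, swap_apply_of_ne_of_ne, h0]
  have h6 : b (σ 0) * b (σ 0) = 2 := by_contra fun h' => by
    have h2 := h.two
    refine h.three h3 hT (h.refl _ _ (b (σ 0) * b (σ 0) / 2) hc h4 (by rw [h5]; field_simp))
      (i := 0) (j := 1) (k := 2) (by decide) (by decide) (by decide) ?_ ?_ ?_
    · simp only [Pi.sub_apply, Function.comp, Perm.mul_apply, Pi.smul_apply, smul_eq_mul]
      rw [show swap (1 : Fin 5) 2 (swap 3 4 0) = 0 by decide]
      exact fun e => h' (mul_left_cancel₀ hi (by field_simp at e; linear_combination -e))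
    all_goals
      simp [swap_apply_of_ne_of_ne, hi, hj, h2, show b (σ 2) = 0 from h0 2 (by decide) (by decide)]
  refine ⟨h6, _, h.perm _ σ⁻¹ (by simp [s]) h4, ?_⟩
  rw [← h6, ← h5, ← Equiv.sum_comp σ]
  simp

theorem FD.ne_one (hb : D b) (i : Fin 5) : b i ≠ 1 := fun h1 => by
  by_cases h' : ∃ j, i ≠ j ∧ b j ≠ 0
  · obtain ⟨j, hij, hj⟩ := h'
    exact one_ne_zero (α := F) (by
      linear_combination (b i + 1) * h1 - (h.pair h3 hT hb hij (by simp [h1]) hj).1)
  push Not at h'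
  have := h.norm b hb
  rw [Finset.sum_eq_single i (fun j _ hj => by simp [h' j hj.symm]) (by simp), h1] at this
  exact h3 (by linear_combination -this)

end

theorem FD.char_three (h : FD D) (h3 : (3 : F) = 0) (hsq : ∀ x : F, x ≠ 0 → x * x = 1) (hb : D b)
    {i j : Fin 5} (hij : i ≠ j) (hi : b i ≠ 0) (hj : b j ≠ 0) {c : Fin 5 → F} (m : Fin 5)
    (hm : c m = 0) (hc : ∀ k, k ≠ m → c k ≠ 0) : D c := by
  obtain ⟨n, hn, hn'⟩ : ∃ n, b n = 0 ∧ ∀ k, k ≠ n → b k ≠ 0 := by
    obtain ⟨k, k1, k2⟩ := exists_third i j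
    obtain ⟨σ, s, rfl, rfl, -⟩ := exists_even hij k1 k2
    have h4 := h.norm _ (h.perm _ σ s hb)
    have h2 := h.two
    simp only [Fin.sum_univ_five, Function.comp, hsq _ hi, hsq _ hj] at h4
    have key : ∀ n, b (σ n) = 0 → (∀ k, k ≠ n → b (σ k) ≠ 0) → ∃ n, b n = 0 ∧ ∀ k, k ≠ n → b k ≠ 0 :=
      fun n a a' => ⟨_, a, fun k hk => by
        obtain ⟨k, rfl⟩ := σ.surjective k
        exact a' k (by simpa using hk)⟩
    by_cases a2 : b (σ 2) = 0 <;> by_cases a3 : b (σ 3) = 0 <;> by_cases a4 : b (σ 4) = 0 <;>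
      simp only [a2, a3, a4, hsq, mul_zero, ne_eq, not_false_eq_true] at h4
    · exact absurd (by linear_combination -h4) h2
    · exact absurd (by linear_combination -h4) (one_ne_zero (α := F))
    · exact absurd (by linear_combination -h4) (one_ne_zero (α := F))
    · exact key 2 a2 fun k hk => by fin_cases k <;> simp_all
    · exact absurd (by linear_combination -h4) (one_ne_zero (α := F))
    · exact key 3 a3 fun k hk => by fin_cases k <;> simp_all
    · exact key 4 a4 fun k hk => by fin_cases k <;> simp_all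
    · exact absurd (by linear_combination h4) (one_ne_zero (α := F))
  obtain ⟨n', a, -⟩ := exists_third n n
  obtain ⟨m', a', -⟩ := exists_third m m
  obtain ⟨d, h1, h2, -, h4⟩ := h.move hb a a'
  refine h.sgn h1 fun k => ?_
  by_cases hk : k = m
  · simp [hk, hm, h2, hn]
  obtain ⟨l, h5, h6⟩ := h4 k hk
  rw [h6, hsq _ (hc k hk), hsq _ (hn' l h5)]

end Cfsg.Agent.H9.O5
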