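import Cfsg.Agent.Orth.Gen

/-! The stabiliser of a non-degenerate plane in a five-dimensional orthogonal space. -/

set_option autoImplicit false
set_option linter.unusedSimpArgs false
set_option linter.unusedSectionVars false
set_option linter.unusedVariables false

namespace Cfsg.Agent.H9.O5

open Module Cfsg.Agent.Orth

variable {F V : Type*} [Field F] [Finite F] [AddCommGroup V] [Module F V] [FiniteDimensional F V]
  {Q : QuadraticForm F V} {M : Subgroup (V ≃ₗ[F] V)} {P P' : Submodule F V}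

/-- standing hypotheses -/
structure Ctx (Q : QuadraticForm F V) (M : Subgroup (V ≃ₗ[F] V)) : Prop where
  nd : Nd Q
  dim : finrank F V = 5
  two : (2 : F) ≠ 0
  big : ∃ l : F, l ≠ 0 ∧ l * l ≠ 1
  le : M ≤ O Q
  ne : ¬ EO Q ≤ M

/-- planes whose stabiliser lies in `M` -/
structure Blk (Q : QuadraticForm F V) (M : Subgroup (V ≃ₗ[F] V)) (P : Submodule F V) : Prop where
  nd : NdOn Q P
  dim : finrank F P = 2
  mem : ∀ h ∈ EO Q, (∀ v ∈ P, h v ∈ P) → h ∈ M

theorem Blk.map (C : Ctx Q M) (h : Blk Q M P) {g : V ≃ₗ[F] V} (hg : g ∈ M) :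
    Blk Q M (P.map (g : V →ₗ[F] V)) := by
  refine ⟨h.nd.map (C.le hg), by rw [LinearEquiv.finrank_map_eq, h.dim], fun k hk h1 => ?_⟩
  have := h.mem (g⁻¹ * k * g⁻¹⁻¹) (conj_mem_EO (inv_mem (C.le hg)) hk) fun v hv => by
    obtain ⟨w, hw, h2⟩ := h1 _ ⟨v, hv, rfl⟩
    rw [inv_inv, mul_app, mul_app]
    simp only [LinearEquiv.coe_coe] at h2
    rwa [← h2, inv_apply_apply]
  simpa [mul_assoc] using mul_mem (mul_mem hg this) (inv_mem hg)

theorem Blk.eich (h : Blk Q M P) {e w : V} (he : e ∈ perp Q P) (hw : w ∈ perp Q P) :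
    eich Q e w ∈ M := h.mem _ (eich_mem_EO _ _) fun v hv => by
  rwa [eich_apply_of_perp (mem_perp'.1 he v hv) (mem_perp'.1 hw v hv)]

theorem Blk.refl (C : Ctx Q M) (h : Blk Q M P) {a b : V} (ha : a ∈ P ∨ a ∈ perp Q P)
    (hb : b ∈ P ∨ b ∈ perp Q P) {c : F} (hc : c ≠ 0) (hq : Q a = c * c * Q b) :
    refl Q a * refl Q b ∈ M := by
  have key : ∀ a, a ∈ P ∨ a ∈ perp Q P → ∀ v ∈ P, Orth.refl Q a v ∈ P := by
    rintro a (ha | ha) v hv
    · exact refl_mem ha hv
    · rwa [refl_of_perp (mem_perp'.1 ha v hv)]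
  exact h.mem _ (C.nd.refl_mul_refl_mem_EO' C.dim.ge hc hq) fun v hv => key a ha _ (key b hb v hv)

theorem Blk.dim' (C : Ctx Q M) (h : Blk Q M P) : finrank F (perp Q P) = 3 := by
  have := C.nd.finrank_perp P
  rw [h.dim, C.dim] at this; omega

theorem Blk.partner (C : Ctx Q M) (h : Blk Q M P) {e : V} (he : e ∈ perp Q P) (he0 : e ≠ 0)
    (hq : Q e = 0) : ∃ f ∈ perp Q P, Q f = 0 ∧ B Q e f = 1 :=
  exists_partner he hq ((h.nd.perp C.nd).exists_B_ne he he0)

theorem refl_hyp {e f : V} (he : Q e = 0) (hf : Q f = 0) (hef : B Q e f = 1) {a : F} (ha : a ≠ 0) :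
    Q (e + a • f) = a ∧ refl Q (e + a • f) e = -a • f ∧ refl Q (e + a • f) f = -a⁻¹ • e := by
  have h1 : Q (e + a • f) = a := by simp [Q_add, Q_smul, he, hf, hef]
  refine ⟨h1, ?_, ?_⟩ <;> rw [refl_apply, h1] <;>
    simp only [map_add, map_smul, LinearMap.add_apply, LinearMap.smul_apply, B_self, he, hf, hef,
      B_comm Q f e, smul_eq_mul] <;> match_scalars <;> field_simp <;> ring

theorem Ctx.exists_t (C : Ctx Q M) {a b : F} (ha : a ≠ 0) : ∃ t : F, t ≠ 0 ∧ a + t * t * b ≠ 0 := by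
  obtain ⟨l, h1, h2⟩ := C.big
  by_cases h : a + 1 * 1 * b = 0
  · refine ⟨l, h1, fun h3 => ha ?_⟩
    apply mul_left_cancel₀ (sub_ne_zero.2 h2)
    linear_combination l * l * h - h3
  · exact ⟨1, one_ne_zero, h⟩

theorem exists_orth {K : Submodule F V} (hK : 2 ≤ finrank F K) (a : V) :
    ∃ b ∈ K, b ≠ 0 ∧ B Q a b = 0 := by
  obtain ⟨b, h1, h2⟩ := exists_mem_notMem_of_finrank_lt (H := K ⊓ perp Q (F ∙ a)) (X := ⊥) (by
    have := finrank_inf_perp_ge (Q := Q) K (F ∙ a)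
    have := finrank_span_singleton_le (F := F) a
    rw [finrank_bot]; omega)
  exact ⟨b, h1.1, by simpa using h2, mem_perp_span_singleton.1 h1.2⟩

theorem orth_ind (h2 : (2 : F) ≠ 0) {a b : V} (ha : Q a ≠ 0) (hb : b ≠ 0) (h : B Q a b = 0) :
    (∀ x y : F, x • a + y • b = 0 → x = 0 ∧ y = 0) ∧ finrank F (Submodule.span F {a, b}) = 2 := by
  have ind : ∀ x y : F, x • a + y • b = 0 → x = 0 ∧ y = 0 := fun x y hxy => by
    have h3 : x = 0 := by simpa [h, B_self, h2, ha] using congrArg (B Q a) hxy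
    exact ⟨h3, by simpa [h3, hb] using hxy⟩
  have k6 := finrank_span_eq_card (LinearIndependent.pair_iff.2 ind)
  rw [Matrix.range_cons_cons_empty, Fintype.card_fin] at k6
  exact ⟨ind, k6⟩

theorem Blk.exists_w (C : Ctx Q M) (h : Blk Q M P) (e : V) :
    ∃ w ∈ perp Q P, B Q e w = 0 ∧ Q w ≠ 0 := by
  obtain ⟨w, hw, hw0⟩ := (h.nd.perp C.nd).exists_nonsing (H := perp Q P ⊓ perp Q (F ∙ e)) inf_le_left
    (by have := finrank_inf_perp_ge (Q := Q) (perp Q P) (F ∙ e)
        have := finrank_span_singleton_le (F := F) e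
        have := h.dim' C
        omega)
  exact ⟨w, hw.1, mem_perp_span_singleton.1 hw.2, hw0⟩

theorem Blk.step0 (C : Ctx Q M) (h : Blk Q M P) {e p : V} (he : e ∈ perp Q P) (he0 : e ≠ 0)
    (hq : Q e = 0) (hp : p ∈ P) (hE : Orth.eich Q e p ∈ M) : p = 0 := by
  by_contra hp0
  obtain ⟨f, hf, hqf, hef⟩ := h.partner C he he0 hq
  have hU : ∀ a : F, e + a • f ∈ perp Q P := fun a => add_mem he (Submodule.smul_mem _ _ hf)
  have hep : ∀ v ∈ P, B Q e v = 0 := mem_perp'.1 he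
  have sc : ∀ (c : F) v, v ∈ P → Orth.eich Q e v ∈ M → Orth.eich Q e ((c * c) • v) ∈ M := by
    intro c v hv h1
    by_cases hc : c = 0
    · simp [hc, eich_zero]
    obtain ⟨a1, -, a3⟩ := refl_hyp hq hqf hef one_ne_zero
    obtain ⟨b1, b2, -⟩ := refl_hyp hq hqf hef (mul_ne_zero hc hc)
    have := eich_conj_mem C.le (h.refl C (Or.inr (hU 1)) (Or.inr (hU (c * c))) (inv_ne_zero hc)
      (by rw [a1, b1]; field_simp)) h1
    rwa [mul_app, mul_app, b2, map_smul, a3, refl_of_perp (mem_perp'.1 (hU _) v hv),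
      refl_of_perp (mem_perp'.1 (hU _) v hv), smul_smul, eich_smul_left hq (hep v hv),
      show -(c * c) * -1⁻¹ = c * c by simp] at this
  let S : Submodule F V :=
    { carrier := {v | v ∈ P ∧ Orth.eich Q e v ∈ M}
      add_mem' := fun {a b} ha hb => ⟨add_mem ha.1 hb.1, by
        rw [← eich_mul hq (hep a ha.1) (hep b hb.1)]; exact mul_mem ha.2 hb.2⟩
      zero_mem' := ⟨zero_mem _, by rw [eich_zero]; exact one_mem _⟩
      smul_mem' := fun c v hv => ⟨P.smul_mem c hv.1, by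
        have h1 := mul_mem (sc ((c + 1) / 2) v hv.1 hv.2) (inv_mem (sc ((c - 1) / 2) v hv.1 hv.2))
        rw [eich_inv hq (by simp [hep v hv.1]), eich_mul hq (by simp [hep v hv.1])
          (by simp [hep v hv.1])] at h1
        convert h1 using 2
        have := C.two
        match_scalars; field_simp; ring⟩ }
  obtain ⟨w, hw, hew, hw0⟩ := h.exists_w C e
  obtain ⟨a₀, ha₀, hqa⟩ := h.nd.exists_Q_eq le_rfl (by rw [h.dim]) (Q w)
  have r0 : ∀ v ∈ S, Orth.refl Q a₀ v ∈ S := fun v hv => ⟨refl_mem ha₀ hv.1, by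
    have := eich_conj_mem C.le (h.refl C (Or.inl ha₀) (Or.inr hw) one_ne_zero (by simp [hqa])) hv.2
    rwa [mul_app, mul_app, refl_of_perp ((B_comm Q w e).trans hew),
      refl_of_perp (he a₀ ha₀), refl_of_perp (mem_perp'.1 hw v hv.1)] at this⟩
  have r1 : ∀ a ∈ P, Q a ≠ 0 → ∀ v ∈ S, a ∈ S ∨ B Q a v = 0 := by
    intro a ha hqa' v hv
    have hw0' : Q a₀ ≠ 0 := hqa ▸ hw0
    obtain ⟨a1, -, a3⟩ := refl_hyp hq hqf hef hqa'
    obtain ⟨b1, b2, -⟩ := refl_hyp hq hqf hef hw0'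
    have h1 := eich_conj_mem C.le (mul_mem (h.refl C (Or.inl ha) (Or.inr (hU (Q a))) one_ne_zero
      (by simp [a1])) (h.refl C (Or.inr (hU (Q a₀))) (Or.inl ha₀) one_ne_zero (by simp [b1])))
      (r0 v hv).2
    simp only [mul_app, refl_refl] at h1
    rw [refl_of_perp (he a₀ ha₀), b2, map_smul, a3, map_smul, map_smul, refl_of_perp (he a ha),
      refl_of_perp (mem_perp'.1 (hU _) v hv.1), refl_of_perp (mem_perp'.1 (hU _) v hv.1), smul_smul,
      eich_smul_left hq (hep _ (refl_mem ha hv.1))] at h1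
    have h2 : Orth.refl Q a v ∈ S := by
      have := S.smul_mem (-Q a₀ * -(Q a)⁻¹)⁻¹ ⟨P.smul_mem _ (refl_mem ha hv.1), h1⟩
      rwa [smul_smul, inv_mul_cancel₀ (by simp [hw0', hqa']), one_smul] at this
    by_cases h4 : B Q a v = 0
    · exact Or.inr h4
    have := S.smul_mem ((Q a)⁻¹ * B Q a v)⁻¹ (S.sub_mem hv h2)
    rw [refl_apply, sub_sub_cancel, smul_smul, inv_mul_cancel₀ (by simp [hqa', h4]), one_smul] at this
    exact Or.inl this
  have hpS : p ∈ S := ⟨hp, hE⟩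
  obtain ⟨a, ha, h1, h2, h4⟩ : ∃ a ∈ P, Q a ≠ 0 ∧ B Q a p ≠ 0 ∧ a ∉ F ∙ p := by
    by_cases hqp : Q p = 0
    · obtain ⟨p', a1, a2, a3⟩ := exists_partner hp hqp (h.nd.exists_B_ne hp hp0)
      refine ⟨p + p', add_mem hp a1, by simp [Q_add, hqp, a2, a3],
        by simp [B_self, hqp, B_comm Q p', a3], fun h5 => ?_⟩
      obtain ⟨c, hc⟩ := Submodule.mem_span_singleton.1 h5
      simpa [B_self, hqp, a3] using congrArg (B Q p) hc
    obtain ⟨p', a1, a2, a3⟩ := exists_orth (Q := Q) h.dim.ge p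
    obtain ⟨t, t1, t2⟩ := C.exists_t (b := Q p') hqp
    refine ⟨p + t • p', add_mem hp (P.smul_mem _ a1), by simpa [Q_add, Q_smul, a3] using t2,
      by simp [B_self, hqp, B_comm Q p', a3, C.two], fun h5 => a2 ?_⟩
    obtain ⟨c, hc⟩ := Submodule.mem_span_singleton.1 h5
    have h6 := congrArg (B Q p) hc
    simp only [map_add, map_smul, a3, B_self, smul_eq_mul, mul_zero, add_zero] at h6
    rw [mul_right_cancel₀ (mul_ne_zero C.two hqp) (h6.trans (one_mul _).symm)] at hc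
    simpa [t1] using hc
  have hS : P ≤ S := by
    have h5 : (F ∙ p) < S := lt_of_le_of_ne ((Submodule.span_singleton_le_iff_mem _ _).2 hpS)
      fun h6 => h4 (h6 ▸ (r1 a ha h1 p hpS).resolve_right h2)
    have h6 := Submodule.finrank_lt_finrank_of_lt h5
    rw [finrank_span_singleton hp0] at h6
    exact (Submodule.eq_of_le_of_finrank_le (show S ≤ P from fun v hv => hv.1)
      (by rw [h.dim]; omega)).ge
  obtain ⟨a1, a2, -⟩ := refl_hyp hq hqf hef h1
  refine C.ne (EO_le_of_full_of_move C.nd C.dim.ge C.le hq (fun v hv => ?_)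
    (h.refl C (Or.inr (hU (Q a))) (Or.inl ha) one_ne_zero (by simp [a1])) ?_)
  · obtain ⟨x, hx, y, hy, rfl⟩ := h.nd.exists_decomp v
    rw [← eich_mul hq (hep x hx) (by simpa [hep x hx] using hv)]
    exact mul_mem (hS hx).2 (h.eich he hy)
  · rw [mul_app, refl_of_perp (he a ha), a2]
    simp [hef, h1]

theorem Blk.step1 (C : Ctx Q M) (h : Blk Q M P) (h' : Blk Q M P') {e : V} (he : e ∈ perp Q P)
    (he' : e ∈ perp Q P') (he0 : e ≠ 0) (hq : Q e = 0) : P = P' := by
  have hep : ∀ v ∈ P, B Q e v = 0 := mem_perp'.1 he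
  have key : ∀ f ∈ perp Q P', Q f = 0 → B Q e f = 1 → f ∈ perp Q P := by
    intro f' hf' hq' hef'
    obtain ⟨p, hp, u, hu, rfl⟩ := h.nd.exists_decomp f'
    have h1 : B Q e u = 1 := by simpa [hep p hp] using hef'
    rw [Q_add, hu p hp, add_zero] at hq'
    have hf : u + Q p • e ∈ perp Q P := add_mem hu (Submodule.smul_mem _ _ he)
    have h2 : Q (u + Q p • e) = 0 := by
      simpa [Q_add, Q_smul, hq, B_comm Q u e, h1, add_comm] using hq'
    have h3 : B Q e (u + Q p • e) = 1 := by simp [h1, B_self, hq]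
    have h4 : Orth.eich Q e p (u + Q p • e) = p + u := by
      rw [eich_apply hq (hep p hp), h3, hf p hp]; module
    generalize u + Q p • e = f at *
    obtain ⟨l, l1, l2⟩ := C.big
    obtain ⟨a1, -, a3⟩ := refl_hyp hq h2 h3 one_ne_zero
    obtain ⟨b1, b2, -⟩ := refl_hyp hq h2 h3 (mul_ne_zero l1 l1)
    have hU : ∀ a : F, e + a • f ∈ perp Q P := fun a => add_mem he (Submodule.smul_mem _ _ hf)
    have hE := eich_mem_O (Q := Q) e p
    have hU' : ∀ a : F, Orth.eich Q e p (e + a • f) ∈ perp Q P' := fun a => by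
      rw [map_add, map_smul, eich_apply_self hq (hep p hp), h4]
      exact add_mem he' (Submodule.smul_mem _ _ hf')
    have k1 := h.refl C (Or.inr (hU 1)) (Or.inr (hU (l * l))) (inv_ne_zero l1)
      (by rw [a1, b1]; field_simp)
    have k2 := h'.refl C (Or.inr (hU' 1)) (Or.inr (hU' (l * l))) (inv_ne_zero l1)
      (by rw [hE, hE, a1, b1]; field_simp)
    rw [← conj_refl hE, ← conj_refl hE] at k2
    have k3 := mul_mem k2 (inv_mem k1)
    have k4 := conj_eich (C.le k1) e (-p)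
    rw [← eich_inv hq (hep p hp), mul_app, mul_app, b2, map_smul, a3, map_neg, map_neg,
      refl_of_perp (mem_perp'.1 (hU _) p hp), refl_of_perp (mem_perp'.1 (hU _) p hp), smul_smul,
      eich_smul_left hq (by simp [hep p hp])] at k4
    have k5 : Orth.eich Q e (p + (-(l * l) * -1⁻¹ : F) • -p) ∈ M := by
      rw [← eich_mul hq (hep p hp) (by simp [hep p hp]), ← k4]
      convert k3 using 1
      group
    have k6 := h.step0 C he he0 hq (add_mem hp (P.smul_mem _ (neg_mem hp))) k5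
    have k7 : (1 - l * l) • p = 0 := by rw [← k6]; match_scalars; ring
    rwa [(smul_eq_zero.1 k7).resolve_left (sub_ne_zero.2 l2.symm), zero_add]
  obtain ⟨f, hf, hqf, hef⟩ := h'.partner C he' he0 hq
  have k1 : ∀ x ∈ perp Q P', B Q e x = 1 → x ∈ perp Q P := fun x hx h1 => by
    simpa using add_mem (key (x - Q x • e) (sub_mem hx (Submodule.smul_mem _ _ he'))
      (by simp [Q_sub, Q_smul, hq, B_comm Q x e, h1]) (by simp [h1, B_self, hq]))
      (Submodule.smul_mem _ (Q x) he)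
  refine C.nd.perp_injective (Submodule.eq_of_le_of_finrank_eq (fun x hx => ?_)
    (by rw [h.dim' C, h'.dim' C])).symm
  simpa using sub_mem (k1 (x + (1 - B Q e x) • f) (add_mem hx (Submodule.smul_mem _ _ hf))
    (by simp [hef])) (Submodule.smul_mem _ (1 - B Q e x) (k1 f hf hef))

theorem Blk.stab (C : Ctx Q M) (h : Blk Q M P) {e : V} (he : e ∈ perp Q P) (he0 : e ≠ 0)
    (hq : Q e = 0) {g : V ≃ₗ[F] V} (hg : g ∈ M) (hge : g e = e) : ∀ v ∈ P, g v ∈ P := fun v hv => by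
  rw [h.step1 C (h.map C hg) he (by rw [perp_map (C.le hg)]; exact ⟨e, he, hge⟩) he0 hq]
  exact ⟨v, hv, rfl⟩

theorem Blk.claimA (C : Ctx Q M) (h : Blk Q M P) (h' : Blk Q M P')
    (hs : ∀ s ∈ P', s ∈ perp Q P → s = 0) : P = P' := by
  have d1 := h.dim' C
  have d2 := h'.dim' C
  obtain ⟨e, he', he0, hq⟩ := exists_sing_of_three (Q := Q) (perp Q P') d2.ge
  refine h.step1 C h' ?_ he' he0 hq
  obtain ⟨a, ha, hea, hqa⟩ := h.exists_w C e
  obtain ⟨a', ⟨ha', hea'⟩, h0, h1⟩ := exists_orth (Q := Q) (K := perp Q P ⊓ perp Q (F ∙ e)) (by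
    have := finrank_span_singleton_le (F := F) e
    have := finrank_inf_perp_ge (Q := Q) (perp Q P) (F ∙ e)
    omega) a
  replace hea' := mem_perp_span_singleton.1 hea'
  obtain ⟨ind, k6⟩ := orth_ind C.two hqa h0 h1
  obtain ⟨t, t1, t2⟩ := C.exists_t (b := Q a') hqa
  have h2 : Q (a + t • a') ≠ 0 := by simpa [Q_add, Q_smul, h1] using t2
  obtain ⟨x, y, hy, hb⟩ : ∃ x y : F, y ≠ 0 ∧ Q (x • a + y • a') = Q a :=
    ⟨1 - (Q (a + t • a'))⁻¹ * (2 * Q a), _, neg_ne_zero.2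
      (mul_ne_zero (mul_ne_zero (inv_ne_zero h2) (mul_ne_zero C.two hqa)) t1), by
      conv_rhs => rw [← refl_mem_O Q (a + t • a') a, refl_apply]
      congr 1
      simp only [map_add, map_smul, LinearMap.add_apply, LinearMap.smul_apply, B_self, B_comm Q a' a,
        h1, smul_zero, add_zero]
      module⟩
  have hbU := add_mem (Submodule.smul_mem _ x ha) (Submodule.smul_mem _ y ha')
  have k1 := h.refl C (Or.inr ha) (Or.inr hbU) one_ne_zero (by simp [hb])
  have k2 := h'.stab C he' he0 hq k1 (by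
    rw [mul_app, refl_of_perp (a := x • a + y • a') (by simp [B_comm Q _ e, hea, hea']),
      refl_of_perp ((B_comm Q a e).trans hea)])
  have k3 : ∀ p ∈ P', B Q a p = 0 ∧ B Q a' p = 0 := fun p hp => by
    have k4 := hs _ (sub_mem (k2 p hp) hp) (by
      rw [mul_app, refl_apply, refl_apply, sub_right_comm, sub_sub_cancel_left]
      exact sub_mem (neg_mem (Submodule.smul_mem _ _ hbU)) (Submodule.smul_mem _ _ ha))
    rw [sub_eq_zero, mul_app] at k4
    have k5 := congrArg (Orth.refl Q a) k4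
    rw [refl_refl, refl_apply, refl_apply, hb] at k5
    obtain ⟨k6, k7⟩ := ind ((Q a)⁻¹ * B Q (x • a + y • a') p * x - (Q a)⁻¹ * B Q a p)
      ((Q a)⁻¹ * B Q (x • a + y • a') p * y) (by linear_combination (norm := module) -k5)
    have k8 : B Q (x • a + y • a') p = 0 := by simpa [hqa, hy] using k7
    rw [k8] at k6
    have k9 : B Q a p = 0 := by simpa [hqa] using k6
    exact ⟨k9, by simpa [k9, hy] using k8⟩
  have k4 : Submodule.span F {a, a'} = perp Q P' ⊓ perp Q (F ∙ e) := by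
    refine Submodule.eq_of_le_of_finrank_le (Submodule.span_le.2 ?_) ?_
    · rintro _ (rfl | rfl)
      exacts [⟨mem_perp'.2 fun p hp => (k3 p hp).1, mem_perp_span_singleton.2 hea⟩,
        ⟨mem_perp'.2 fun p hp => (k3 p hp).2, mem_perp_span_singleton.2 hea'⟩]
    · have k5 := (h'.nd.perp C.nd).finrank_inf_perp ((Submodule.span_singleton_le_iff_mem _ _).2 he')
      rw [finrank_span_singleton he0] at k5
      omega
  have k5 : e ∈ Submodule.span F {a, a'} :=
    k4 ▸ ⟨he', mem_perp_span_singleton.2 (B_self_of_sing Q hq)⟩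
  obtain ⟨c, d, rfl⟩ := Submodule.mem_span_pair.1 k5
  exact add_mem (Submodule.smul_mem _ _ ha) (Submodule.smul_mem _ _ ha')

theorem Blk.unique (C : Ctx Q M) (h : Blk Q M P) (h' : Blk Q M P') : P = P' := by
  obtain ⟨e, he', he0, hq⟩ := exists_sing_of_three (Q := Q) (perp Q P') (h'.dim' C).ge
  refine h.step1 C h' ?_ he' he0 hq
  obtain ⟨w, hw, hew, hqw⟩ := h'.exists_w C e
  obtain ⟨p, hp, hqp⟩ := h.nd.exists_nonsing le_rfl (by rw [h.dim]; omega)
  obtain ⟨p', hp', h0, h1⟩ := exists_orth (Q := Q) h.dim.ge p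
  have h1' : B Q p' p = 0 := by rw [B_comm, h1]
  have hP : Submodule.span F {p, p'} = P :=
    Submodule.eq_of_le_of_finrank_eq (Submodule.span_le.2 (by rintro _ (rfl | rfl); exacts [hp, hp']))
      (by rw [(orth_ind C.two hqp h0 h1).2, h.dim])
  have hqp' : Q p' ≠ 0 := fun h2 => h0 (h.nd p' hp' fun x hx => by
    obtain ⟨a, b, rfl⟩ := Submodule.mem_span_pair.1 (hP ▸ hx)
    simp [h1, B_self, h2])
  obtain ⟨t, t1, t2⟩ := C.exists_t (a := 4 * Q p * Q p') (b := (B Q e p' * B Q w p - B Q w p' * B Q e p) ^ 2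
    - 2 * Q w * (Q p * B Q e p' ^ 2 + Q p' * B Q e p ^ 2))
    (by simp [hqp, hqp', show (4 : F) = 2 * 2 by norm_num, C.two])
  have hx := h'.eich he' (Submodule.smul_mem _ t hw)
  have hx1 := eich_apply (Q := Q) hq (w := t • w) (by simp [hew])
  have k1 := h.claimA C (h.map C hx) (by
    rintro _ ⟨s, hs, rfl⟩ h2
    obtain ⟨a, b, rfl⟩ := Submodule.mem_span_pair.1 (hP ▸ hs)
    have e1 := h2 p hp
    have e2 := h2 p' hp'
    simp only [LinearEquiv.coe_coe, hx1, map_add, map_sub, map_smul, LinearMap.smul_apply, h1, h1',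
      B_self, smul_eq_mul, Q_smul, B_comm Q p e, B_comm Q p' e, B_comm Q p w, B_comm Q p' w] at e1 e2
    have ha : a = 0 := mul_right_cancel₀ t2 (by
      linear_combination (2 * Q p' - t * t * Q w * B Q e p' ^ 2) * e1 - (t * (B Q e p' * B Q w p -
        B Q w p' * B Q e p) - t * t * Q w * B Q e p * B Q e p') * e2)
    have hb : b = 0 := mul_right_cancel₀ t2 (by
      linear_combination (2 * Q p - t * t * Q w * B Q e p ^ 2) * e2 + (t * (B Q e p' * B Q w p -
        B Q w p' * B Q e p) + t * t * Q w * B Q e p * B Q e p') * e1)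
    simp [ha, hb])
  have k2 : ∀ v ∈ P, Orth.eich Q e (t • w) v - v ∈ P := fun v hv =>
    sub_mem (k1.ge ⟨v, hv, rfl⟩) hv
  refine mem_perp'.2 fun v hv => by_contra fun h2 => ?_
  have k3 := k2 v hv
  have k4 := k2 _ k3
  obtain ⟨c, hc⟩ : ∃ c : F, Orth.eich Q e (t • w) v - v = (B Q e v * t) • w + c • e :=
    ⟨-(B Q (t • w) v + Q (t • w) * B Q e v), by rw [hx1]; module⟩
  rw [hc] at k3 k4
  have h3 := mul_ne_zero h2 t1
  have k5 : e ∈ P := by
    have := P.smul_mem (-(t * (B Q e v * t) * (2 * Q w)))⁻¹ k4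
    rw [hx1] at this
    convert this using 1
    simp only [map_add, map_smul, LinearMap.smul_apply, hew, B_self, hq, B_comm Q w e, smul_eq_mul]
    have := C.two
    match_scalars <;> field_simp <;> ring
  have k6 : w ∈ P := by
    simpa [smul_smul, h2, t1, mul_assoc] using P.smul_mem (B Q e v * t)⁻¹ (sub_mem k3 (P.smul_mem c k5))
  have k7 : Submodule.span F {w, e} = P :=
    Submodule.eq_of_le_of_finrank_eq (Submodule.span_le.2 (by rintro _ (rfl | rfl); exacts [k6, k5]))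
      (by rw [(orth_ind C.two hqw he0 ((B_comm Q w e).trans hew)).2, h.dim])
  obtain ⟨a, b, rfl⟩ := Submodule.mem_span_pair.1 (k7 ▸ hv)
  simp [hew, B_self, hq] at h2

theorem plane_core (hQ : Nd Q) (hd : finrank F V = 5) (h2 : (2 : F) ≠ 0)
    (hl : ∃ l : F, l ≠ 0 ∧ l * l ≠ 1) (hP : NdOn Q P) (hP2 : finrank F P = 2) (hM : M ≤ O Q)
    (hH : ∀ h ∈ EO Q, (∀ v ∈ P, h v ∈ P) → h ∈ M) : (∀ g ∈ M, ∀ v ∈ P, g v ∈ P) ∨ EO Q ≤ M := by
  by_cases hE : EO Q ≤ M
  · exact Or.inr hE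
  have C : Ctx Q M := ⟨hQ, hd, h2, hl, hM, hE⟩
  have h : Blk Q M P := ⟨hP, hP2, hH⟩
  refine Or.inl fun g hg v hv => ?_
  rw [h.unique C (h.map C hg)]
  exact ⟨v, hv, rfl⟩

end Cfsg.Agent.H9.O5
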